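import Cfsg.Agent.Chars.PrimitiveDegTwo.Eigen
import Mathlib.RepresentationTheory.Irreducible
import Mathlib.GroupTheory.GroupAction.Quotient
import Mathlib.GroupTheory.Index
import Mathlib.GroupTheory.Commutator.Basic

/-!
# Finite groups with a faithful irreducible representation of degree two

If no abelian subgroup has index at most two, the centre has index `12`, `24` or `60`: the orbit
count for the action on the eigenlines of the non-central elements.
-/

set_option autoImplicit false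

namespace CfsgLib.PrimitiveDegTwo

open Module
open scoped commutatorElement

theorem arith_aux {n s2 s3 h2 h3 s1 : ℕ} (h1 : 2 * s1 = n) (e2 : h2 * s2 = n) (e3 : h3 * s3 = n)
    (g2 : 2 ≤ h2) (g3 : 2 ≤ h3) (hh : h2 ≤ h3) (l1 : 3 ≤ s1) (l2 : 3 ≤ s2) (l3 : 3 ≤ s3)
    (hs : s1 + s2 + s3 = n + 2) : n = 12 ∨ n = 24 ∨ n = 60 := by
  have hh2 : h2 ≤ 3 := by
    by_contra h
    have a2 : 4 * s2 ≤ n := e2 ▸ Nat.mul_le_mul_right s2 (by omega)
    have a3 : 4 * s3 ≤ n := e3 ▸ Nat.mul_le_mul_right s3 (by omega)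
    omega
  interval_cases h2
  · omega
  · have h6 : h3 < 6 := by
      by_contra h
      have a3 : 6 * s3 ≤ n := e3 ▸ Nat.mul_le_mul_right s3 (by omega)
      omega
    interval_cases h3 <;> omega

theorem arith {n : ℕ} {h s : Fin 3 → ℕ} (he : ∀ i, h i * s i = n) (hh : ∀ i, 2 ≤ h i)
    (hl : ∀ i, 3 ≤ s i) (hs : s 0 + s 1 + s 2 = n + 2) : n = 12 ∨ n = 24 ∨ n = 60 := by
  obtain ⟨i, hi⟩ : ∃ i, h i = 2 := by
    by_contra hc
    push Not at hc
    have a : ∀ i, 3 * s i ≤ n := fun i =>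
      (he i) ▸ Nat.mul_le_mul_right (s i) (show 3 ≤ h i by have := hh i; have := hc i; omega)
    have := a 0; have := a 1; have := a 2
    omega
  have key : ∀ a b c : Fin 3, h a = 2 → s a + s b + s c = n + 2 → n = 12 ∨ n = 24 ∨ n = 60 := by
    intro a b c ha hsum
    have e1 : 2 * s a = n := ha ▸ he a
    rcases le_total (h b) (h c) with hle | hle
    · exact arith_aux e1 (he b) (he c) (hh b) (hh c) hle (hl a) (hl b) (hl c) hsum
    · exact arith_aux e1 (he c) (he b) (hh c) (hh b) hle (hl a) (hl c) (hl b) (by omega)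
  fin_cases i
  · exact key 0 1 2 hi hs
  · exact key 1 0 2 hi (by omega)
  · exact key 2 0 1 hi (by omega)

variable {G : Type*} [Group G] [Finite G] (ρ : Representation ℂ G V2)

theorem rho_injective (hinj : ∀ g, ρ g = 1 → g = 1) : Function.Injective ρ := fun a b h => by
  have : ρ (a⁻¹ * b) = 1 := by rw [map_mul, ← h, ← map_mul, inv_mul_cancel, map_one]
  exact inv_mul_eq_one.1 (hinj _ this)

theorem invariant_bot_or_top (hirr : ρ.IsIrreducible) (W : Submodule ℂ V2)
    (hW : ∀ g, ∀ v ∈ W, ρ g v ∈ W) : W = ⊥ ∨ W = ⊤ := by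
  have := hirr
  let S : Subrepresentation ρ := ⟨W, fun g v hv => hW g v hv⟩
  rcases IsSimpleOrder.eq_bot_or_eq_top S with h | h
  · exact Or.inl (congrArg Subrepresentation.toSubmodule h)
  · exact Or.inr (congrArg Subrepresentation.toSubmodule h)

theorem mem_center_iff_scalar (hinj : ∀ g, ρ g = 1 → g = 1) (hirr : ρ.IsIrreducible) (g : G) :
    g ∈ Subgroup.center G ↔ ∃ a : ℂ, ρ g = a • 1 := by
  constructor
  · intro hg
    obtain ⟨a, ha⟩ := Module.End.exists_eigenvalue (ρ g)
    refine ⟨a, LinearMap.ext fun v => ?_⟩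
    rcases invariant_bot_or_top ρ hirr (Module.End.eigenspace (ρ g) a) (fun h v hv => by
      rw [Module.End.mem_eigenspace_iff] at hv ⊢
      rw [← Module.End.mul_apply, ← map_mul, ← Subgroup.mem_center_iff.1 hg h, map_mul,
        Module.End.mul_apply, hv, map_smul]) with h | h
    · exact absurd h (Module.End.hasEigenvalue_iff.1 ha)
    · simpa using Module.End.mem_eigenspace_iff.1 (h.ge (Submodule.mem_top (x := v)))
  · rintro ⟨a, ha⟩
    rw [Subgroup.mem_center_iff]
    intro h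
    apply rho_injective ρ hinj
    rw [map_mul, map_mul, ha, mul_smul_comm, smul_mul_assoc, one_mul, mul_one]

theorem exists_eigen (hinj : ∀ g, ρ g = 1 → g = 1) (hirr : ρ.IsIrreducible) {g : G}
    (hg : g ∉ Subgroup.center G) :
    ∃ a b : ℂ, a ≠ b ∧ finrank ℂ (Module.End.eigenspace (ρ g) a) = 1 ∧ finrank ℂ (Module.End.eigenspace (ρ g) b) = 1 ∧
      (∀ c : ℂ, Module.End.HasEigenvalue (ρ g) c → c = a ∨ c = b) ∧ LinearMap.det (ρ g) = a * b :=
  exists_two_eigen (orderOf_pos g) (by rw [← map_pow, pow_orderOf_eq_one, map_one])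
    fun a ha => hg ((mem_center_iff_scalar ρ hinj hirr g).2 ⟨a, ha⟩)

/-- A line. -/
def Line : Type := {L : Submodule ℂ V2 // finrank ℂ L = 1}

theorem map_rho_mul (a b : G) (L : Submodule ℂ V2) :
    L.map (ρ (a * b)) = (L.map (ρ b)).map (ρ a) := by
  rw [map_mul, Module.End.mul_eq_comp, Submodule.map_comp]

theorem rho_apply_injective (g : G) : Function.Injective (ρ g) :=
  Function.LeftInverse.injective (g := ρ g⁻¹) fun v => by
    rw [← Module.End.mul_apply, ← map_mul, inv_mul_cancel, map_one, Module.End.one_apply]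

theorem finrank_map_rho (g : G) (L : Submodule ℂ V2) : finrank ℂ (L.map (ρ g)) = finrank ℂ L :=
  (Submodule.equivMapOfInjective (ρ g) (rho_apply_injective ρ g) L).symm.finrank_eq

/-- The eigenlines of the non-central elements. -/
def Omega : Type := {L : Line // ∃ g ∉ Subgroup.center G, L.1.map (ρ g) = L.1}

theorem omega_move (g : G) {L : Line} (h : ∃ k ∉ Subgroup.center G, L.1.map (ρ k) = L.1) :
    ∃ k ∉ Subgroup.center G, (L.1.map (ρ g)).map (ρ k) = L.1.map (ρ g) := by
  obtain ⟨k, hk, hkL⟩ := h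
  refine ⟨g * k * g⁻¹, fun hc => hk ?_, ?_⟩
  · have e := Subgroup.mem_center_iff.1 hc g
    have e2 : g * k * g⁻¹ = k := by
      have := congrArg (fun z => g⁻¹ * z) e
      simpa [mul_assoc] using this
    rwa [e2] at hc
  · rw [← map_rho_mul, inv_mul_cancel_right, map_rho_mul, hkL]

@[reducible] noncomputable def omegaAction : MulAction G (Omega ρ) where
  smul g L := ⟨⟨L.1.1.map (ρ g), by rw [finrank_map_rho]; exact L.1.2⟩, omega_move ρ g L.2⟩
  one_smul L := Subtype.ext (Subtype.ext (by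
    show L.1.1.map (ρ 1) = _
    rw [map_one, Module.End.one_eq_id, Submodule.map_id]))
  mul_smul a b L := Subtype.ext (Subtype.ext (map_rho_mul ρ a b L.1.1))

theorem eq_eigenspace_of_fixed (hinj : ∀ g, ρ g = 1 → g = 1) (hirr : ρ.IsIrreducible) {g : G}
    (hg : g ∉ Subgroup.center G) {L : Line} (hL : L.1.map (ρ g) = L.1) :
    ∀ a b : ℂ, finrank ℂ (Module.End.eigenspace (ρ g) a) = 1 → finrank ℂ (Module.End.eigenspace (ρ g) b) = 1 →
      (∀ c : ℂ, Module.End.HasEigenvalue (ρ g) c → c = a ∨ c = b) →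
      L.1 = Module.End.eigenspace (ρ g) a ∨ L.1 = Module.End.eigenspace (ρ g) b := by
  intro a b ha hb hc
  obtain ⟨⟨v, hv⟩, hv0, hspan⟩ := finrank_eq_one_iff'.1 L.2
  have hv0' : v ≠ 0 := fun e => hv0 (Subtype.ext e)
  obtain ⟨c, hcv⟩ := hspan ⟨ρ g v, hL ▸ Submodule.mem_map_of_mem hv⟩
  have hcv' : c • v = ρ g v := congrArg Subtype.val hcv
  have hev : Module.End.HasEigenvalue (ρ g) c :=
    Module.End.hasEigenvalue_of_hasEigenvector ⟨Module.End.mem_eigenspace_iff.2 hcv'.symm, hv0'⟩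
  have hle : L.1 ≤ Module.End.eigenspace (ρ g) c := by
    intro w hw
    obtain ⟨d, hd⟩ := hspan ⟨w, hw⟩
    rw [← show d • v = w from congrArg Subtype.val hd]
    exact Submodule.smul_mem _ _ (Module.End.mem_eigenspace_iff.2 hcv'.symm)
  rcases hc c hev with rfl | rfl
  · exact Or.inl (Submodule.eq_of_le_of_finrank_eq hle (by rw [L.2, ha]))
  · exact Or.inr (Submodule.eq_of_le_of_finrank_eq hle (by rw [L.2, hb]))

theorem map_eigenspace_self (g : G) {a : ℂ} (ha : finrank ℂ (Module.End.eigenspace (ρ g) a) = 1) :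
    (Module.End.eigenspace (ρ g) a).map (ρ g) = Module.End.eigenspace (ρ g) a := by
  refine Submodule.eq_of_le_of_finrank_eq ?_ (finrank_map_rho ρ g _)
  rintro w ⟨v, hv, rfl⟩
  rw [Module.End.mem_eigenspace_iff.1 hv]
  exact Submodule.smul_mem _ _ hv

/-- A non-central element fixes exactly two lines, both in `Omega`. -/
theorem card_fixed (hinj : ∀ g, ρ g = 1 → g = 1) (hirr : ρ.IsIrreducible) {g : G}
    (hg : g ∉ Subgroup.center G) :
    Nat.card {L : Omega ρ // L.1.1.map (ρ g) = L.1.1} = 2 := by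
  obtain ⟨a, b, hab, ha, hb, hc, -⟩ := exists_eigen ρ hinj hirr hg
  have hne : Module.End.eigenspace (ρ g) a ≠ Module.End.eigenspace (ρ g) b := fun e => by
    have hd : Disjoint (Module.End.eigenspace (ρ g) a) (Module.End.eigenspace (ρ g) b) :=
      (Module.End.eigenspaces_iSupIndep (ρ g)).pairwiseDisjoint hab
    rw [e, disjoint_self] at hd
    rw [hd, finrank_bot] at hb
    exact absurd hb (by norm_num)
  let mk : (c : ℂ) → finrank ℂ (Module.End.eigenspace (ρ g) c) = 1 →
      {L : Omega ρ // L.1.1.map (ρ g) = L.1.1} := fun c h =>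
    ⟨⟨⟨_, h⟩, g, hg, map_eigenspace_self ρ g h⟩, map_eigenspace_self ρ g h⟩
  rw [Nat.card_eq_two_iff]
  refine ⟨mk a ha, mk b hb, fun e => hne (congrArg (fun L => L.1.1.1) e), ?_⟩
  refine Set.eq_univ_of_forall fun L => ?_
  rcases eq_eigenspace_of_fixed ρ hinj hirr hg L.2 a b ha hb hc with h | h
  · exact Or.inl (Subtype.ext (Subtype.ext (Subtype.ext h)))
  · exact Or.inr (Subtype.ext (Subtype.ext (Subtype.ext h)))

theorem finite_omega (hinj : ∀ g, ρ g = 1 → g = 1) (hirr : ρ.IsIrreducible) : Finite (Omega ρ) := by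
  let T := {g : G // g ∉ Subgroup.center G}
  have : ∀ g : T, Finite {L : Omega ρ // L.1.1.map (ρ g.1) = L.1.1} := fun g =>
    Nat.finite_of_card_ne_zero (by rw [card_fixed ρ hinj hirr g.2]; norm_num)
  refine Finite.of_surjective (fun q : Σ g : T, {L : Omega ρ // L.1.1.map (ρ g.1) = L.1.1} => q.2.1)
    fun L => ?_
  obtain ⟨g, hg, hL⟩ := L.2
  exact ⟨⟨⟨g, hg⟩, L, hL⟩, rfl⟩

theorem stabilizer_commutes (hinj : ∀ g, ρ g = 1 → g = 1) (hirr : ρ.IsIrreducible) (L : Line)
    {h k : G} (hh : L.1.map (ρ h) = L.1) (hk : L.1.map (ρ k) = L.1) : h * k = k * h := by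
  obtain ⟨⟨v, hv⟩, hv0, hspan⟩ := finrank_eq_one_iff'.1 L.2
  have hv0' : v ≠ 0 := fun e => hv0 (Subtype.ext e)
  have hsc : ∀ z : G, L.1.map (ρ z) = L.1 → ∃ c : ℂ, c ≠ 0 ∧ ρ z v = c • v := by
    intro z hz
    obtain ⟨c, hc⟩ := hspan ⟨ρ z v, hz ▸ Submodule.mem_map_of_mem hv⟩
    have hc' : c • v = ρ z v := congrArg Subtype.val hc
    refine ⟨c, fun h0 => ?_, hc'.symm⟩
    rw [h0, zero_smul] at hc'
    exact hv0' (rho_apply_injective ρ z (by rw [map_zero]; exact hc'.symm))
  have hinv : ∀ z : G, ∀ c : ℂ, c ≠ 0 → ρ z v = c • v → ρ z⁻¹ v = c⁻¹ • v := by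
    intro z c hc0 hzv
    have := congrArg (ρ z⁻¹) hzv
    rw [← Module.End.mul_apply, ← map_mul, inv_mul_cancel, map_one, Module.End.one_apply, map_smul]
      at this
    rw [eq_inv_smul_iff₀ hc0, this.symm]
  obtain ⟨α, hα0, hα⟩ := hsc h hh
  obtain ⟨β, hβ0, hβ⟩ := hsc k hk
  rw [← commutatorElement_eq_one_iff_mul_comm]
  set c := ⁅h, k⁆ with hcdef
  have hcv : ρ c v = v := by
    rw [hcdef, commutatorElement_def]
    simp only [map_mul, Module.End.mul_apply, hinv k β hβ0 hβ, map_smul, hinv h α hα0 hα, hβ, hα,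
      smul_smul]
    rw [show (β⁻¹ * (α⁻¹ * (β * α)) : ℂ) = 1 by field_simp, one_smul]
  have hdet : LinearMap.det (ρ c) = 1 := by
    let d : G →* ℂˣ := MonoidHom.toHomUnits ((LinearMap.det : Module.End ℂ V2 →* ℂ).comp ρ)
    have : d c = 1 := by
      rw [hcdef, map_commutatorElement, commutatorElement_eq_one_iff_mul_comm, mul_comm]
    exact congrArg Units.val this
  by_cases hcc : c ∈ Subgroup.center G
  · obtain ⟨a, ha⟩ := (mem_center_iff_scalar ρ hinj hirr c).1 hcc
    have hav : a • v = (1 : ℂ) • v := by rw [one_smul]; rw [ha] at hcv; simpa using hcv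
    have ha1 : a = 1 := smul_left_injective ℂ hv0' hav
    exact hinj c (by rw [ha, ha1, one_smul])
  · exfalso
    obtain ⟨a, b, hab, -, -, hc, hd⟩ := exists_eigen ρ hinj hirr hcc
    have h1 : Module.End.HasEigenvalue (ρ c) 1 := Module.End.hasEigenvalue_of_hasEigenvector
      ⟨Module.End.mem_eigenspace_iff.2 (by rw [one_smul]; exact hcv), hv0'⟩
    rw [hdet] at hd
    rcases hc 1 h1 with e | e
    · rw [← e, one_mul] at hd; exact hab (e.symm.trans hd)
    · rw [← e, mul_one] at hd; exact hab (hd.symm.trans e)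

theorem center_index (hinj : ∀ g, ρ g = 1 → g = 1) (hirr : ρ.IsIrreducible)
    (hab : ∀ H : Subgroup G, (∀ a ∈ H, ∀ b ∈ H, a * b = b * a) → 3 ≤ H.index) :
    (Subgroup.center G).index = 12 ∨ (Subgroup.center G).index = 24 ∨
      (Subgroup.center G).index = 60 := by
  classical
  haveI : Fintype G := Fintype.ofFinite G
  haveI := finite_omega ρ hinj hirr
  haveI : Fintype (Omega ρ) := Fintype.ofFinite _
  letI := omegaAction ρ
  set Z := Subgroup.center G
  set n := Z.index
  have hn : 2 ≤ n := by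
    have h := hab Z (fun a ha b _ => (Subgroup.mem_center_iff.1 ha b).symm)
    omega
  have hfixiff : ∀ (g : G) (L : Omega ρ), g • L = L ↔ L.1.1.map (ρ g) = L.1.1 := fun g L =>
    ⟨fun e => congrArg (fun M : Omega ρ => M.1.1) e, fun e => Subtype.ext (Subtype.ext e)⟩
  have hZfix : ∀ g ∈ Z, ∀ L : Omega ρ, g • L = L := by
    intro g hg L
    rw [hfixiff]
    refine Submodule.eq_of_le_of_finrank_eq ?_ (finrank_map_rho ρ g _)
    rintro w ⟨v, hv, rfl⟩
    obtain ⟨a, ha⟩ := (mem_center_iff_scalar ρ hinj hirr g).1 hg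
    rw [ha]
    exact Submodule.smul_mem _ a hv
  -- the stabilizers
  let Ω' := Quotient (MulAction.orbitRel G (Omega ρ))
  haveI : Fintype Ω' := Fintype.ofFinite _
  let st : Ω' → Subgroup G := fun ω => MulAction.stabilizer G ω.out
  have hst3 : ∀ ω, 3 ≤ (st ω).index := fun ω => hab _ fun a ha b hb =>
    stabilizer_commutes ρ hinj hirr ω.out.1 ((hfixiff a _).1 (MulAction.mem_stabilizer_iff.1 ha))
      ((hfixiff b _).1 (MulAction.mem_stabilizer_iff.1 hb))
  have hZst : ∀ ω, Z ≤ st ω := fun ω g hg => MulAction.mem_stabilizer_iff.2 (hZfix g hg _)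
  have hh2 : ∀ ω, 2 ≤ Z.relIndex (st ω) := by
    intro ω
    have h0 : Z.relIndex (st ω) ≠ 0 := Subgroup.index_ne_zero_of_finite
    have h1 : Z.relIndex (st ω) ≠ 1 := fun e => by
      rw [Subgroup.relIndex_eq_one] at e
      obtain ⟨g, hg, hgL⟩ := ω.out.2
      exact hg (e (MulAction.mem_stabilizer_iff.2 ((hfixiff g _).2 hgL)))
    omega
  have hhs : ∀ ω, Z.relIndex (st ω) * (st ω).index = n := fun ω =>
    Subgroup.relIndex_mul_index (hZst ω)
  -- the size of `Omega`
  have hcardΩ : Fintype.card (Omega ρ) = ∑ ω : Ω', (st ω).index := by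
    rw [← Nat.card_eq_fintype_card,
      Nat.card_congr (MulAction.selfEquivSigmaOrbitsQuotientStabilizer G (Omega ρ)), Nat.card_sigma]
    rfl
  -- Burnside
  have hburn : Fintype.card (Omega ρ) + 2 * (n - 1) = Fintype.card Ω' * n := by
    have hB := MulAction.sum_card_fixedBy_eq_card_orbits_mul_card_group G (Omega ρ)
    have h1 : ∀ g : G, Fintype.card (MulAction.fixedBy (Omega ρ) g) =
        if g ∈ Z then Fintype.card (Omega ρ) else 2 := by
      intro g
      split_ifs with hg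
      · exact Fintype.card_congr (Equiv.subtypeUnivEquiv fun L => hZfix g hg L)
      · rw [← Nat.card_eq_fintype_card, ← card_fixed ρ hinj hirr hg]
        exact Nat.card_congr (Equiv.subtypeEquivRight fun L => hfixiff g L)
    rw [Finset.sum_congr rfl (fun g _ => h1 g), Finset.sum_ite, Finset.sum_const, Finset.sum_const,
      smul_eq_mul, smul_eq_mul] at hB
    have hZc : (Finset.univ.filter fun g => g ∈ Z).card = Nat.card Z := by
      rw [← Fintype.card_subtype, Nat.card_eq_fintype_card]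
    have hnc := Finset.card_filter_add_card_filter_not (s := (Finset.univ : Finset G)) (fun g => g ∈ Z)
    rw [hZc, Finset.card_univ, ← Nat.card_eq_fintype_card, ← Z.card_mul_index] at hnc
    rw [hZc, ← Nat.card_eq_fintype_card (α := G), ← Z.card_mul_index] at hB
    apply Nat.eq_of_mul_eq_mul_left (Nat.card_pos (α := Z))
    have h3 : Nat.card Z * (n - 1) = (Finset.univ.filter fun g => ¬ g ∈ Z).card := by
      rw [Nat.mul_sub_one]; simp only [n]; omega
    rw [Nat.mul_add, mul_left_comm, h3, mul_comm 2, hB]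
    ring
  set k := Fintype.card Ω'
  have hle : ∀ ω, 2 * (st ω).index ≤ n := fun ω => hhs ω ▸ Nat.mul_le_mul_right _ (hh2 ω)
  have hΩle : 2 * Fintype.card (Omega ρ) ≤ k * n := by
    rw [hcardΩ, Finset.mul_sum]
    refine (Finset.sum_le_sum fun ω _ => hle ω).trans ?_
    simp [k]
  have hΩge : 3 * k ≤ Fintype.card (Omega ρ) := by
    rw [hcardΩ, mul_comm]
    calc k * 3 = ∑ _ω : Ω', 3 := by simp [k]
      _ ≤ _ := Finset.sum_le_sum fun ω _ => hst3 ω
  have hk : k = 3 := by
    have hk4 : k < 4 := by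
      by_contra h
      have : 4 * n ≤ k * n := Nat.mul_le_mul_right n (by omega)
      omega
    interval_cases k <;> omega
  let e := Fintype.equivFinOfCardEq hk
  refine arith (h := fun i => Z.relIndex (st (e.symm i))) (s := fun i => (st (e.symm i)).index)
    (fun i => hhs _) (fun i => hh2 _) (fun i => hst3 _) ?_
  rw [hcardΩ, ← Equiv.sum_comp e.symm, Fin.sum_univ_three, hk] at hburn
  omega

end CfsgLib.PrimitiveDegTwo
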