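import Mathlib.LinearAlgebra.Eigenspace.Triangularizable
import Mathlib.LinearAlgebra.Eigenspace.Charpoly
import Mathlib.LinearAlgebra.Semisimple
import Mathlib.LinearAlgebra.Eigenspace.Semisimple
import Mathlib.LinearAlgebra.Dimension.Constructions
import Mathlib.FieldTheory.Separable
import Mathlib.Analysis.Complex.Polynomial.Basic

/-!
# Endomorphisms of finite order in dimension two
-/

set_option autoImplicit false

namespace CfsgLib.PrimitiveDegTwo

open Module Module.End

abbrev V2 := Fin 2 → ℂ

theorem maxGen_eq_eigen {A : Module.End ℂ V2} {N : ℕ} (hN : 0 < N) (hA : A ^ N = 1) (μ : ℂ) :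
    A.maxGenEigenspace μ = A.eigenspace μ := by
  have hsq : Squarefree ((Polynomial.X : Polynomial ℂ) ^ N - 1) :=
    (Polynomial.X_pow_sub_one_separable_iff.2 (Nat.cast_ne_zero.2 hN.ne')).squarefree
  have hss : A.IsSemisimple := Module.End.isSemisimple_of_squarefree_aeval_eq_zero hsq (by simp [hA])
  exact Module.End.IsFinitelySemisimple.maxGenEigenspace_eq_eigenspace (Module.End.isFinitelySemisimple_iff_isSemisimple.2 hss) μ

/-- A non-scalar endomorphism of finite order in dimension two: two eigenlines. -/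
theorem exists_two_eigen {A : Module.End ℂ V2} {N : ℕ} (hN : 0 < N) (hA : A ^ N = 1)
    (hns : ∀ a : ℂ, A ≠ a • 1) :
    ∃ a b : ℂ, a ≠ b ∧ finrank ℂ (A.eigenspace a) = 1 ∧ finrank ℂ (A.eigenspace b) = 1 ∧
      (∀ c : ℂ, A.HasEigenvalue c → c = a ∨ c = b) ∧ LinearMap.det A = a * b := by
  obtain ⟨a, ha⟩ := exists_eigenvalue A
  have hsup : ⨆ μ : ℂ, A.eigenspace μ = ⊤ := by
    rw [← iSup_maxGenEigenspace_eq_top A]
    exact iSup_congr fun μ => (maxGen_eq_eigen hN hA μ).symm
  obtain ⟨b, hb, hab⟩ : ∃ b, A.HasEigenvalue b ∧ a ≠ b := by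
    by_contra hcon
    push Not at hcon
    have htop : A.eigenspace a = ⊤ := by
      refine top_le_iff.1 (hsup.ge.trans (iSup_le fun μ => ?_))
      by_cases h : A.HasEigenvalue μ
      · rw [hcon μ h]
      · rw [hasEigenvalue_iff, not_not] at h
        rw [h]; exact bot_le
    refine hns a (LinearMap.ext fun v => ?_)
    simpa using mem_eigenspace_iff.1 (htop.ge (Submodule.mem_top (x := v)))
  have hind := eigenspaces_iSupIndep A
  have hdis : Disjoint (A.eigenspace a) (A.eigenspace b) := hind.pairwiseDisjoint hab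
  have hV : finrank ℂ V2 = 2 := by simp
  have hsum := Submodule.finrank_sup_add_finrank_inf_eq (A.eigenspace a) (A.eigenspace b)
  rw [disjoint_iff.1 hdis, finrank_bot, add_zero] at hsum
  have hle := Submodule.finrank_le (A.eigenspace a ⊔ A.eigenspace b)
  have hpos : ∀ c, A.HasEigenvalue c → 1 ≤ finrank ℂ (A.eigenspace c) := fun c hc =>
    Submodule.one_le_finrank_iff.2 (hasEigenvalue_iff.1 hc)
  have h1 := hpos a ha
  have h2 := hpos b hb
  have h3 : ∀ c : ℂ, A.HasEigenvalue c → c = a ∨ c = b := by
    intro c hc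
    by_contra hcne
    push Not at hcne
    have htop : A.eigenspace a ⊔ A.eigenspace b = ⊤ := Submodule.eq_top_of_finrank_eq (by omega)
    have hd : Disjoint (A.eigenspace c) (A.eigenspace a ⊔ A.eigenspace b) := by
      refine (hind c).mono_right (sup_le ?_ ?_)
      · exact le_iSup₂_of_le a (Ne.symm hcne.1) le_rfl
      · exact le_iSup₂_of_le b (Ne.symm hcne.2) le_rfl
    rw [htop, disjoint_top] at hd
    exact hasEigenvalue_iff.1 hc hd
  refine ⟨a, b, hab, by omega, by omega, h3, ?_⟩
  have hsplit : A.charpoly.Splits := IsAlgClosed.splits _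
  rw [det_eq_prod_roots_charpoly_of_splits hsplit]
  have hcard : A.charpoly.roots.card = 2 := by
    rw [← hsplit.natDegree_eq_card_roots, LinearMap.charpoly_natDegree, hV]
  have hle2 : ({a, b} : Multiset ℂ) ≤ A.charpoly.roots := by
    refine (Multiset.le_iff_subset (by simp [hab])).2 fun c hc => ?_
    rw [Polynomial.mem_roots (LinearMap.charpoly_monic A).ne_zero,
      ← hasEigenvalue_iff_isRoot_charpoly]
    simp only [Multiset.insert_eq_cons, Multiset.mem_cons, Multiset.mem_singleton] at hc
    rcases hc with rfl | rfl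
    · exact ha
    · exact hb
  rw [← Multiset.eq_of_le_of_card_le hle2 (by rw [hcard]; simp)]
  simp

end CfsgLib.PrimitiveDegTwo
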